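import Mathlib
import Cfsg.Prelude.Def_KGroupFacts

/-!
# Free presentations and the Schur multiplier

For a finite group `U`: `F = FreeGroup U`, `κ : F → U`, `R = ker κ`, `Ĝ = F / [R, F]`.
The kernel `R̂ = ker (Ĝ → U)` is central, `M = R̂ ⊓ Ĝ'` is finite, and `M` is a multiplier of `U`:
every surjection `ξ : E → U` with central kernel receives a map `Ĝ → E`, which maps `M` onto
`ker ξ ⊓ E'`.
-/

set_option autoImplicit false

namespace Cfsg.Agent.Lib.Schur

open Cfsg
open scoped commutatorElement

universe u v w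

noncomputable section

/-! ### Splitting -/

section Splitting

/-- In a finitely generated abelian group, a subgroup with torsion-free quotient has a complement. -/
theorem exists_compl_of_torsionFree {A : Type*} [CommGroup A] [Group.FG A] (T : Subgroup A)
    (hT : ∀ (x : A) (k : ℕ), k ≠ 0 → x ^ k ∈ T → x ∈ T) :
    ∃ C : Subgroup A, C ⊓ T = ⊥ ∧ C ⊔ T = ⊤ := by
  classical
  let V := Additive A
  let W : Submodule ℤ V := AddSubgroup.toIntSubmodule (Subgroup.toAddSubgroup T)
  haveI : Module.Finite ℤ V := Module.Finite.iff_addGroup_fg.mpr inferInstance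
  haveI : Module.IsTorsionFree ℤ (V ⧸ W) := by
    rw [Module.isTorsionFree_iff_smul_eq_zero]
    intro r m hrm
    by_cases hr : r = 0
    · exact Or.inl hr
    right
    obtain ⟨v, rfl⟩ := W.mkQ_surjective m
    rw [Submodule.mkQ_apply, ← Submodule.Quotient.mk_smul, Submodule.Quotient.mk_eq_zero] at hrm
    rw [Submodule.mkQ_apply, Submodule.Quotient.mk_eq_zero]
    have h1 : Additive.toMul v ^ r ∈ T := hrm
    refine hT (Additive.toMul v) r.natAbs (by omega) ?_
    rcases Int.natAbs_eq r with h | h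
    · rw [h, zpow_natCast] at h1
      exact h1
    · rw [h, zpow_neg, zpow_natCast] at h1
      exact (Subgroup.inv_mem_iff T).mp h1
  have hfree : Module.Free ℤ (V ⧸ W) := inferInstance
  obtain ⟨s, hs⟩ := Module.projective_lifting_property W.mkQ LinearMap.id W.mkQ_surjective
  have hs' : ∀ q : V ⧸ W, W.mkQ (s q) = q := fun q => LinearMap.congr_fun hs q
  let C : Subgroup A :=
    { carrier := {a | Additive.ofMul a ∈ LinearMap.range s}
      one_mem' := by
        show Additive.ofMul (1 : A) ∈ LinearMap.range s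
        exact (LinearMap.range s).zero_mem
      mul_mem' := by
        intro a b ha hb
        show Additive.ofMul (a * b) ∈ LinearMap.range s
        exact (LinearMap.range s).add_mem ha hb
      inv_mem' := by
        intro a ha
        show Additive.ofMul (a⁻¹) ∈ LinearMap.range s
        exact (LinearMap.range s).neg_mem ha }
  refine ⟨C, ?_, ?_⟩
  · rw [eq_bot_iff]
    rintro x ⟨hx1, hx2⟩
    obtain ⟨q, hq⟩ := hx1
    have h1 : W.mkQ (Additive.ofMul x) = 0 := by
      rw [Submodule.mkQ_apply, Submodule.Quotient.mk_eq_zero]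
      exact hx2
    have h2 : q = 0 := by
      rw [← hs' q, hq, h1]
    rw [Subgroup.mem_bot]
    have h3 : Additive.ofMul x = 0 := by rw [← hq, h2, map_zero]
    exact h3
  · rw [eq_top_iff]
    intro x _
    let y : V := s (W.mkQ (Additive.ofMul x))
    have hy : Additive.toMul y ∈ C := ⟨_, rfl⟩
    have hxy : Additive.ofMul x - y ∈ W := by
      have : W.mkQ (Additive.ofMul x - y) = 0 := by
        rw [map_sub, hs', sub_self]
      rw [Submodule.mkQ_apply, Submodule.Quotient.mk_eq_zero] at this
      exact this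
    have hxy' : Additive.toMul (Additive.ofMul x - y) ∈ T := hxy
    have e : x = Additive.toMul y * Additive.toMul (Additive.ofMul x - y) := by
      have : Additive.ofMul x = y + (Additive.ofMul x - y) := by abel
      exact this
    rw [e]
    exact Subgroup.mul_mem_sup hy hxy'

/-- The subgroup form of the splitting lemma. -/
theorem exists_compl_in {G : Type*} [Group G] (N T : Subgroup G)
    (hc : ∀ a ∈ N, ∀ b ∈ N, a * b = b * a) [Group.FG N] (hTN : T ≤ N)
    (hT : ∀ x ∈ N, ∀ k : ℕ, k ≠ 0 → x ^ k ∈ T → x ∈ T) :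
    ∃ C : Subgroup G, C ≤ N ∧ C ⊓ T = ⊥ ∧ C ⊔ T = N := by
  letI : CommGroup N :=
    { (inferInstance : Group N) with
      mul_comm := fun a b => Subtype.ext (hc a a.2 b b.2) }
  obtain ⟨C, hC1, hC2⟩ := exists_compl_of_torsionFree (T.subgroupOf N) (by
    intro x k hk hx
    have h1 : (x : G) ^ k ∈ T := by
      have := Subgroup.mem_subgroupOf.mp hx
      simpa using this
    exact Subgroup.mem_subgroupOf.mpr (hT x x.2 k hk h1))
  refine ⟨C.map N.subtype, Subgroup.map_subtype_le C, ?_, ?_⟩
  · rw [eq_bot_iff]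
    rintro x ⟨⟨y, hy, rfl⟩, hx⟩
    have h1 : y ∈ C ⊓ T.subgroupOf N := ⟨hy, Subgroup.mem_subgroupOf.mpr hx⟩
    rw [hC1, Subgroup.mem_bot] at h1
    rw [Subgroup.mem_bot, h1, map_one]
  · apply le_antisymm
    · exact sup_le (Subgroup.map_subtype_le C) hTN
    · have h2 : (⊤ : Subgroup N).map N.subtype ≤ (C ⊔ T.subgroupOf N).map N.subtype := by
        rw [hC2]
      have h3 : N ≤ (⊤ : Subgroup N).map N.subtype := by
        intro x hx
        exact ⟨⟨x, hx⟩, trivial, rfl⟩
      refine h3.trans (h2.trans ?_)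
      rw [Subgroup.map_sup]
      refine sup_le le_sup_left (le_trans ?_ le_sup_right)
      rw [Subgroup.subgroupOf_map_subtype]
      exact inf_le_left

end Splitting

/-! ### Central elements and commutators -/

section Central

variable {G : Type*} [Group G]

theorem comm_mul_central {a b z w : G} (hz : z ∈ Subgroup.center G) (hw : w ∈ Subgroup.center G) :
    ⁅a * z, b * w⁆ = ⁅a, b⁆ := by
  have h1 : ∀ g, g * z = z * g := fun g => (Subgroup.mem_center_iff.mp hz g)
  have h2 : ∀ g, g * w = w * g := fun g => (Subgroup.mem_center_iff.mp hw g)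
  simp only [commutatorElement_def]
  calc a * z * (b * w) * (a * z)⁻¹ * (b * w)⁻¹
      = a * (z * b) * (w * z⁻¹) * a⁻¹ * (w⁻¹ * b⁻¹) := by group
    _ = a * (b * z) * (z⁻¹ * w) * a⁻¹ * (w⁻¹ * b⁻¹) := by
        rw [h1 b]
        congr 2
        have h3 : z⁻¹ * w = w * z⁻¹ := by
          have := h2 z⁻¹
          exact this
        rw [h3]
    _ = a * b * (w * a⁻¹) * (w⁻¹ * b⁻¹) := by group
    _ = a * b * (a⁻¹ * w) * (w⁻¹ * b⁻¹) := by rw [h2 a⁻¹]
    _ = a * b * a⁻¹ * b⁻¹ := by group

theorem commute_of_mem_center {a z : G} (hz : z ∈ Subgroup.center G) : a * z = z * a :=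
  Subgroup.mem_center_iff.mp hz a

/-- A subgroup of the center is normal. -/
theorem normal_of_le_center' {C : Subgroup G} (h : C ≤ Subgroup.center G) : C.Normal := by
  constructor
  intro n hn g
  have : g * n * g⁻¹ = n := by
    rw [commute_of_mem_center (h hn)]
    group
  rwa [this]

end Central

/-! ### The free presentation -/

section Presentation

variable (U : Type u) [Group U]

/-- The canonical map from the free group on `U`. -/
noncomputable def kap : FreeGroup U →* U := FreeGroup.lift id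

theorem kap_of (u : U) : kap U (FreeGroup.of u) = u := by simp [kap]

theorem kap_surjective : Function.Surjective (kap U) := fun u => ⟨FreeGroup.of u, kap_of U u⟩

/-- `[R, F]`. -/
def cC : Subgroup (FreeGroup U) := ⁅(kap U).ker, (⊤ : Subgroup (FreeGroup U))⁆

instance cC_normal : (cC U).Normal := by
  unfold cC; infer_instance

theorem cC_le_ker : cC U ≤ (kap U).ker := Subgroup.commutator_le_left _ _

theorem cC_le_commutator : cC U ≤ commutator (FreeGroup U) :=
  Subgroup.commutator_mono le_top le_rfl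

/-- The group `F / [R, F]`. -/
abbrev GH : Type u := FreeGroup U ⧸ cC U

/-- The map `F / [R, F] → U`. -/
noncomputable def kh : GH U →* U := QuotientGroup.lift (cC U) (kap U) (fun _ hx => cC_le_ker U hx)

theorem kh_mk (f : FreeGroup U) : kh U (f : GH U) = kap U f := rfl

theorem kh_surjective : Function.Surjective (kh U) := by
  intro u
  obtain ⟨f, hf⟩ := kap_surjective U u
  exact ⟨(f : GH U), hf⟩

theorem ker_kh_le_center : (kh U).ker ≤ Subgroup.center (GH U) := by
  intro x hx
  obtain ⟨f, rfl⟩ := QuotientGroup.mk_surjective x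
  rw [Subgroup.mem_center_iff]
  intro y
  obtain ⟨g, rfl⟩ := QuotientGroup.mk_surjective y
  have hf : f ∈ (kap U).ker := hx
  have h1 : ⁅f, g⁆ ∈ cC U := Subgroup.commutator_mem_commutator hf trivial
  have h2 : ((⁅f, g⁆ : FreeGroup U) : GH U) = 1 := (QuotientGroup.eq_one_iff _).2 h1
  have h3 : (f : GH U) * g * (f : GH U)⁻¹ * (g : GH U)⁻¹ = 1 := by
    rw [commutatorElement_def] at h2
    exact h2
  have h4 : (f : GH U) * g = g * f := by
    have := h3
    rw [mul_inv_eq_one, mul_inv_eq_iff_eq_mul] at this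
    exact this
  exact h4.symm

/-- The multiplier, inside `F / [R, F]`. -/
def schurM : Subgroup (GH U) := (kh U).ker ⊓ commutator (GH U)

theorem schurM_le_ker : schurM U ≤ (kh U).ker := inf_le_left

theorem schurM_le_commutator : schurM U ≤ commutator (GH U) := inf_le_right

theorem mem_schurM {x : GH U} : x ∈ schurM U ↔ kh U x = 1 ∧ x ∈ commutator (GH U) := Iff.rfl

/-- The abelianization of the free group is torsion-free. -/
theorem mem_commutator_free_of_pow {f : FreeGroup U} {k : ℕ} (hk : k ≠ 0)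
    (h : f ^ k ∈ commutator (FreeGroup U)) : f ∈ commutator (FreeGroup U) := by
  have h1 : (Abelianization.of f) ^ k = 1 := by
    rw [← map_pow]
    exact (QuotientGroup.eq_one_iff _).2 h
  let a : FreeAbelianGroup U := Additive.ofMul (Abelianization.of f)
  have h2 : k • a = 0 := by
    show Additive.ofMul ((Abelianization.of f) ^ k) = 0
    rw [h1]
    rfl
  have h3 : a = 0 := by
    let e := FreeAbelianGroup.equivFinsupp U
    have h4 : k • e a = 0 := by rw [← map_nsmul, h2, map_zero]
    have h5 : e a = 0 := by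
      ext u
      have := DFunLike.congr_fun h4 u
      simp only [Finsupp.coe_smul, Pi.smul_apply, Finsupp.coe_zero, Pi.zero_apply, smul_eq_zero] at this
      simp only [Finsupp.coe_zero, Pi.zero_apply]
      rcases this with h6 | h6
      · exact absurd h6 hk
      · exact h6
    exact e.injective (h5.trans (map_zero e).symm)
  exact (QuotientGroup.eq_one_iff _).1 h3

theorem mem_commutator_GH_iff (f : FreeGroup U) :
    (f : GH U) ∈ commutator (GH U) ↔ f ∈ commutator (FreeGroup U) := by
  constructor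
  · intro h
    have h1 : commutator (GH U) = (commutator (FreeGroup U)).map (QuotientGroup.mk' (cC U)) := by
      rw [commutator_def, commutator_def, Subgroup.map_commutator, ← MonoidHom.range_eq_map,
        (MonoidHom.range_eq_top).2 (QuotientGroup.mk'_surjective (cC U))]
    rw [h1] at h
    obtain ⟨g, hg, hgf⟩ := h
    have h2 : g⁻¹ * f ∈ cC U := (QuotientGroup.eq).1 hgf
    have h3 := Subgroup.mul_mem _ hg (cC_le_commutator U h2)
    simpa using h3
  · intro h
    have := Subgroup.mem_map_of_mem (QuotientGroup.mk' (cC U)) h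
    rw [commutator_def, Subgroup.map_commutator, ← MonoidHom.range_eq_map,
        (MonoidHom.range_eq_top).2 (QuotientGroup.mk'_surjective (cC U))] at this
    exact this

/-- `R̂ / M` is torsion-free. -/
theorem mem_commutator_GH_of_pow {x : GH U} {k : ℕ} (hk : k ≠ 0)
    (h : x ^ k ∈ commutator (GH U)) : x ∈ commutator (GH U) := by
  obtain ⟨f, rfl⟩ := QuotientGroup.mk_surjective x
  rw [mem_commutator_GH_iff]
  apply mem_commutator_free_of_pow U hk
  rw [← mem_commutator_GH_iff]
  exact h

end Presentation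

/-! ### The universal property -/

section Universal

variable {U : Type u} [Group U] {E : Type v} [Group E] (ξ : E →* U)
  (hs : Function.Surjective ξ) (hz : ξ.ker ≤ Subgroup.center E)

/-- The lift of the free group. -/
noncomputable def liftF : FreeGroup U →* E := FreeGroup.lift (Function.surjInv hs)

theorem xi_liftF (f : FreeGroup U) : ξ (liftF ξ hs f) = kap U f := by
  have h : ξ.comp (liftF ξ hs) = kap U := by
    apply FreeGroup.ext_hom
    intro u
    simp [liftF, kap, Function.surjInv_eq hs]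
  exact DFunLike.congr_fun h f

include hz in
theorem cC_le_ker_liftF : cC U ≤ (liftF ξ hs).ker := by
  unfold cC
  rw [Subgroup.commutator_le]
  intro r hr g _
  have h1 : liftF ξ hs r ∈ ξ.ker := by
    rw [MonoidHom.mem_ker, xi_liftF]
    exact hr
  have h2 := hz h1
  rw [MonoidHom.mem_ker, map_commutatorElement]
  rw [commutatorElement_eq_one_iff_mul_comm]
  exact (Subgroup.mem_center_iff.mp h2 _).symm

/-- The induced map from `F / [R, F]`. -/
noncomputable def liftH : GH U →* E :=
  QuotientGroup.lift (cC U) (liftF ξ hs) (fun _ hx => cC_le_ker_liftF ξ hs hz hx)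

theorem xi_liftH (x : GH U) : ξ (liftH ξ hs hz x) = kh U x := by
  obtain ⟨f, rfl⟩ := QuotientGroup.mk_surjective x
  exact xi_liftF ξ hs f

theorem exists_liftH_mul (a : E) : ∃ x : GH U, ∃ z ∈ ξ.ker, a = liftH ξ hs hz x * z := by
  obtain ⟨x, hx⟩ := kh_surjective U (ξ a)
  refine ⟨x, (liftH ξ hs hz x)⁻¹ * a, ?_, by group⟩
  rw [MonoidHom.mem_ker, map_mul, map_inv, xi_liftH, hx]
  group

theorem commutator_le_map_liftH : commutator E ≤ (commutator (GH U)).map (liftH ξ hs hz) := by
  rw [commutator_def, Subgroup.commutator_le]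
  intro a _ b _
  obtain ⟨x, z, hz', rfl⟩ := exists_liftH_mul ξ hs hz a
  obtain ⟨y, w, hw', rfl⟩ := exists_liftH_mul ξ hs hz b
  rw [comm_mul_central (hz hz') (hz hw'), ← map_commutatorElement]
  exact Subgroup.mem_map_of_mem _ (Subgroup.commutator_mem_commutator trivial trivial)

theorem map_commutator_liftH_le : (commutator (GH U)).map (liftH ξ hs hz) ≤ commutator E := by
  rw [commutator_def, Subgroup.map_commutator]
  exact Subgroup.commutator_mono le_top le_top

/-- The universal property of `M`. -/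
theorem map_schurM_liftH : (schurM U).map (liftH ξ hs hz) = ξ.ker ⊓ commutator E := by
  apply le_antisymm
  · rintro _ ⟨x, hx, rfl⟩
    refine Subgroup.mem_inf.mpr ⟨?_, map_commutator_liftH_le ξ hs hz (Subgroup.mem_map_of_mem _ hx.2)⟩
    rw [MonoidHom.mem_ker, xi_liftH]
    exact hx.1
  · rintro e ⟨he1, he2⟩
    obtain ⟨y, hy, rfl⟩ := commutator_le_map_liftH ξ hs hz he2
    refine ⟨y, ⟨?_, hy⟩, rfl⟩
    have : ξ (liftH ξ hs hz y) = 1 := he1
    rw [xi_liftH] at this
    exact this

/-- `liftH` is onto when the kernel of `ξ` is contained in the commutator subgroup. -/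
theorem liftH_surjective (hk : ξ.ker ≤ commutator E) : Function.Surjective (liftH ξ hs hz) := by
  intro a
  obtain ⟨x, z, hz', rfl⟩ := exists_liftH_mul ξ hs hz a
  obtain ⟨y, -, rfl⟩ := commutator_le_map_liftH ξ hs hz (hk hz')
  exact ⟨x * y, map_mul _ _ _⟩

end Universal

/-! ### Finiteness and covers -/

section Finiteness

variable (U : Type u) [Group U] [Finite U]

instance finite_commutatorSet_GH : Finite (commutatorSet (GH U)) := by
  let s : U → GH U := Function.surjInv (kh_surjective U)
  have hs : ∀ u, kh U (s u) = u := Function.surjInv_eq (kh_surjective U)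
  have key : ∀ x : GH U, ∃ z ∈ Subgroup.center (GH U), x = s (kh U x) * z := by
    intro x
    refine ⟨(s (kh U x))⁻¹ * x, ker_kh_le_center U ?_, by group⟩
    rw [MonoidHom.mem_ker, map_mul, map_inv, hs]
    group
  have : commutatorSet (GH U) ⊆ Set.range (fun p : U × U => ⁅s p.1, s p.2⁆) := by
    rintro _ ⟨a, b, rfl⟩
    obtain ⟨z, hz, ha⟩ := key a
    obtain ⟨w, hw, hb⟩ := key b
    refine ⟨(kh U a, kh U b), ?_⟩
    show ⁅s (kh U a), s (kh U b)⁆ = ⁅a, b⁆
    conv_rhs => rw [ha, hb]
    rw [comm_mul_central hz hw]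
  exact (Set.finite_range _ |>.subset this).to_subtype

instance finite_commutator_GH : Finite (commutator (GH U)) := inferInstance

instance finite_schurM : Finite (schurM U) :=
  Finite.of_injective (Subgroup.inclusion (schurM_le_commutator U)) (Subgroup.inclusion_injective _)

variable {U}

/-- A finite-index subgroup `N` of the kernel that, together with `M`, generates the kernel contains
a complement to `M`. -/
theorem exists_compl_le (N : Subgroup (GH U)) [N.FiniteIndex] (hN : N ≤ (kh U).ker)
    (hsup : N ⊔ schurM U = (kh U).ker) :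
    ∃ C : Subgroup (GH U), C ≤ N ∧ C ⊓ schurM U = ⊥ ∧ C ⊔ schurM U = (kh U).ker := by
  haveI : Group.FG (GH U) := inferInstance
  haveI : Group.FG N := Subgroup.fg_of_index_ne_zero N
  obtain ⟨C, hC, h1, h2⟩ := exists_compl_in N (N ⊓ schurM U)
    (fun a ha b _ => (commute_of_mem_center (a := b) (ker_kh_le_center U (hN ha))).symm ▸ rfl)
    inf_le_left
    (by
      intro x hx k hk hxk
      refine Subgroup.mem_inf.mpr ⟨hx, Subgroup.mem_inf.mpr ⟨hN hx, ?_⟩⟩
      exact mem_commutator_GH_of_pow U hk (schurM_le_commutator U (Subgroup.mem_inf.mp hxk).2))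
  refine ⟨C, hC, ?_, ?_⟩
  · rw [eq_bot_iff, ← h1]
    rintro x ⟨hx1, hx2⟩
    exact ⟨hx1, Subgroup.mem_inf.mpr ⟨hC hx1, hx2⟩⟩
  · apply le_antisymm
    · exact sup_le (hC.trans hN) (schurM_le_ker U)
    · rw [← hsup]
      refine sup_le ?_ le_sup_right
      rw [← h2]
      exact sup_le le_sup_left (inf_le_right.trans le_sup_right)

/-- The group `F / [R, F] / C` for a complement `C`. -/
theorem exists_cover (C : Subgroup (GH U)) (hle : C ≤ (kh U).ker) (hinf : C ⊓ schurM U = ⊥)
    (hsup : C ⊔ schurM U = (kh U).ker) :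
    ∃ (Γ : Type u) (_ : Group Γ) (_ : Finite Γ) (σ : Γ →* U) (q : GH U →* Γ),
      Function.Surjective q ∧ q.ker = C ∧ σ.comp q = kh U ∧ IsStemExtension σ ∧
        Nonempty (σ.ker ≃* schurM U) := by
  classical
  haveI hCn : C.Normal := normal_of_le_center' (hle.trans (ker_kh_le_center U))
  let q : GH U →* (GH U ⧸ C) := QuotientGroup.mk' C
  let σ : (GH U ⧸ C) →* U := QuotientGroup.lift C (kh U) (fun _ hx => hle hx)
  have hq : Function.Surjective q := QuotientGroup.mk'_surjective C
  have hqk : q.ker = C := QuotientGroup.ker_mk' C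
  have hσq : σ.comp q = kh U := rfl
  have hσq' : ∀ x, σ (q x) = kh U x := fun _ => rfl
  have hdec : ∀ x ∈ (kh U).ker, ∃ m ∈ schurM U, q x = q m := by
    intro x hx
    rw [← hsup] at hx
    obtain ⟨c, hc, m, hm, rfl⟩ := Subgroup.mem_sup_of_normal_left.mp hx
    refine ⟨m, hm, ?_⟩
    have : q c = 1 := by
      have : c ∈ q.ker := by rw [hqk]; exact hc
      exact this
    rw [map_mul, this, one_mul]
  have hfin : Finite (GH U ⧸ C) := by
    let s : U → GH U := Function.surjInv (kh_surjective U)
    have hs : ∀ u, kh U (s u) = u := Function.surjInv_eq (kh_surjective U)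
    refine Finite.of_surjective (fun p : U × schurM U => q (s p.1 * p.2)) ?_
    intro y
    obtain ⟨x, rfl⟩ := hq y
    have h1 : (s (kh U x))⁻¹ * x ∈ (kh U).ker := by
      rw [MonoidHom.mem_ker, map_mul, map_inv, hs]
      group
    obtain ⟨m, hm, h2⟩ := hdec _ h1
    refine ⟨(kh U x, ⟨m, hm⟩), ?_⟩
    show q (s (kh U x) * m) = q x
    rw [map_mul, ← h2, ← map_mul]
    congr 1
    group
  have hstem : IsStemExtension σ := by
    refine ⟨?_, ?_, ?_⟩
    · intro u
      obtain ⟨x, hx⟩ := kh_surjective U u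
      exact ⟨q x, hx⟩
    · intro y hy
      obtain ⟨x, rfl⟩ := hq y
      have h1 : x ∈ (kh U).ker := hy
      rw [Subgroup.mem_center_iff]
      intro g
      obtain ⟨g', rfl⟩ := hq g
      rw [← map_mul, ← map_mul, commute_of_mem_center (ker_kh_le_center U h1)]
    · intro y hy
      obtain ⟨x, rfl⟩ := hq y
      have h1 : x ∈ (kh U).ker := hy
      obtain ⟨m, hm, h2⟩ := hdec x h1
      rw [h2]
      have h3 : q m ∈ (commutator (GH U)).map q := Subgroup.mem_map_of_mem _ (schurM_le_commutator U hm)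
      rw [commutator_def, Subgroup.map_commutator] at h3
      exact Subgroup.commutator_mono le_top le_top h3
  refine ⟨GH U ⧸ C, inferInstance, hfin, σ, q, hq, hqk, hσq, hstem, ?_⟩
  let f : schurM U →* σ.ker := (q.comp (schurM U).subtype).codRestrict σ.ker (by
    intro m
    show σ (q m) = 1
    rw [hσq']
    exact m.2.1)
  have hf : Function.Bijective f := by
    constructor
    · intro a b hab
      have h1 : q a = q b := congrArg Subtype.val hab
      have h2 : (a : GH U)⁻¹ * b ∈ q.ker := by
        rw [MonoidHom.mem_ker, map_mul, map_inv, h1]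
        group
      rw [hqk] at h2
      have h3 : (a : GH U)⁻¹ * b ∈ C ⊓ schurM U :=
        Subgroup.mem_inf.mpr ⟨h2, Subgroup.mul_mem _ (Subgroup.inv_mem _ a.2) b.2⟩
      rw [hinf, Subgroup.mem_bot] at h3
      apply Subtype.ext
      exact (inv_mul_eq_one.mp h3)
    · rintro ⟨y, hy⟩
      obtain ⟨x, rfl⟩ := hq y
      have h1 : x ∈ (kh U).ker := hy
      obtain ⟨m, hm, h2⟩ := hdec x h1
      refine ⟨⟨m, hm⟩, Subtype.ext ?_⟩
      exact h2.symm
  exact ⟨(MulEquiv.ofBijective f hf).symm⟩

/-- A finite group has a finite stem extension with kernel `M`. -/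
theorem exists_compl : ∃ C : Subgroup (GH U), C ≤ (kh U).ker ∧ C ⊓ schurM U = ⊥ ∧
    C ⊔ schurM U = (kh U).ker := by
  haveI : ((kh U).ker).FiniteIndex := inferInstance
  obtain ⟨C, h1, h2, h3⟩ := exists_compl_le (kh U).ker le_rfl (sup_eq_left.mpr (schurM_le_ker U))
  exact ⟨C, h1, h2, h3⟩

/-- The map from the multiplier onto the kernel of a stem extension. -/
def toKer {E : Type v} [Group E] (ξ : E →* U) (hs : Function.Surjective ξ)
    (hz : ξ.ker ≤ Subgroup.center E) : schurM U →* ξ.ker :=
  ((liftH ξ hs hz).comp (schurM U).subtype).codRestrict ξ.ker (by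
    intro m
    rw [MonoidHom.mem_ker, MonoidHom.comp_apply, Subgroup.subtype_apply, xi_liftH]
    exact m.2.1)

theorem toKer_surjective {E : Type v} [Group E] (ξ : E →* U) (hs : Function.Surjective ξ)
    (hz : ξ.ker ≤ Subgroup.center E) (hk : ξ.ker ≤ commutator E) :
    Function.Surjective (toKer ξ hs hz) := by
  rintro ⟨y, hy⟩
  have h1 : y ∈ ξ.ker ⊓ commutator E := Subgroup.mem_inf.mpr ⟨hy, hk hy⟩
  rw [← map_schurM_liftH ξ hs hz] at h1
  obtain ⟨m, hm, rfl⟩ := h1
  exact ⟨⟨m, hm⟩, rfl⟩

/-- A multiplier of `U` is isomorphic to `M`. -/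
theorem mulEquiv_schurM {A : Type w} [CommGroup A] (hA : HasSchurMultiplier U A) :
    Nonempty (A ≃* schurM U) := by
  obtain ⟨⟨Γ₁, _, _, σ₁, hσ₁, ⟨e₁⟩⟩, h2⟩ := hA
  obtain ⟨C, hle, hinf, hsup⟩ := exists_compl (U := U)
  obtain ⟨Γ, _, _, σ, q, -, -, -, hσ, ⟨e⟩⟩ := exists_cover C hle hinf hsup
  obtain ⟨π, hπ⟩ := h2 Γ σ hσ
  have hf1 : Function.Surjective (e.toMonoidHom.comp π) := e.surjective.comp hπ
  have hf2 : Function.Surjective (e₁.toMonoidHom.comp (toKer σ₁ hσ₁.1 hσ₁.2.1)) :=
    e₁.surjective.comp (toKer_surjective σ₁ hσ₁.1 hσ₁.2.1 hσ₁.2.2)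
  haveI hfA : Finite A := Finite.of_surjective _ hf2
  have hcard : Nat.card A ≤ Nat.card (schurM U) := Nat.card_le_card_of_surjective _ hf2
  exact ⟨MulEquiv.ofBijective (e.toMonoidHom.comp π) (hf1.bijective_of_nat_card_le hcard)⟩

/-- **The main tool**: for a multiplier `A` of `U` and any surjection `ξ : E → U` with central kernel,
`ker ξ ⊓ E'` is a homomorphic image of `A`. -/
theorem exists_range_eq {A : Type w} [CommGroup A] (hA : HasSchurMultiplier U A)
    {E : Type v} [Group E] (ξ : E →* U) (hs : Function.Surjective ξ)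
    (hz : ξ.ker ≤ Subgroup.center E) : ∃ π : A →* E, π.range = ξ.ker ⊓ commutator E := by
  obtain ⟨e⟩ := mulEquiv_schurM hA
  refine ⟨((liftH ξ hs hz).comp (schurM U).subtype).comp e.toMonoidHom, ?_⟩
  rw [← map_schurM_liftH ξ hs hz]
  ext y
  constructor
  · rintro ⟨a, rfl⟩
    exact ⟨e a, (e a).2, rfl⟩
  · rintro ⟨m, hm, rfl⟩
    refine ⟨e.symm ⟨m, hm⟩, ?_⟩
    simp

/-- The kernel of the lift is a complement when the stem extension has maximal kernel. -/
theorem ker_liftH_compl {E : Type v} [Group E] [Finite E] (ξ : E →* U) (hξ : IsStemExtension ξ)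
    (hcard : Nat.card ξ.ker = Nat.card (schurM U)) :
    (liftH ξ hξ.1 hξ.2.1).ker ≤ (kh U).ker ∧ (liftH ξ hξ.1 hξ.2.1).ker ⊓ schurM U = ⊥ ∧
      (liftH ξ hξ.1 hξ.2.1).ker ⊔ schurM U = (kh U).ker := by
  have hsurj := toKer_surjective ξ hξ.1 hξ.2.1 hξ.2.2
  have hinj : Function.Injective (toKer ξ hξ.1 hξ.2.1) :=
    (hsurj.bijective_of_nat_card_le hcard.ge).1
  have hle : (liftH ξ hξ.1 hξ.2.1).ker ≤ (kh U).ker := by
    intro x hx
    rw [MonoidHom.mem_ker, ← xi_liftH ξ hξ.1 hξ.2.1, MonoidHom.mem_ker.mp hx, map_one]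
  refine ⟨hle, ?_, ?_⟩
  · rw [eq_bot_iff]
    rintro x ⟨hx1, hx2⟩
    have h1 : toKer ξ hξ.1 hξ.2.1 ⟨x, hx2⟩ = 1 := Subtype.ext hx1
    have h2 := hinj (h1.trans (map_one _).symm)
    rw [Subgroup.mem_bot]
    exact congrArg Subtype.val h2
  · apply le_antisymm (sup_le hle (schurM_le_ker U))
    intro x hx
    have h1 : liftH ξ hξ.1 hξ.2.1 x ∈ ξ.ker := by
      rw [MonoidHom.mem_ker, xi_liftH]
      exact hx
    obtain ⟨m, hm⟩ := hsurj ⟨_, h1⟩
    have h2 : liftH ξ hξ.1 hξ.2.1 (m : GH U) = liftH ξ hξ.1 hξ.2.1 x := congrArg Subtype.val hm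
    have h3 : x * (m : GH U)⁻¹ ∈ (liftH ξ hξ.1 hξ.2.1).ker := by
      rw [MonoidHom.mem_ker, map_mul, map_inv, h2]
      group
    have h4 : x = x * (m : GH U)⁻¹ * m := by group
    rw [h4]
    exact Subgroup.mul_mem_sup h3 m.2

end Finiteness

end

end Cfsg.Agent.Lib.Schur
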