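import Mathlib
import Cfsg.Prelude.Def_KGroupFacts
import Cfsg.Agent.Lib.Schur.Basic

/-!
# Central extensions defined by a bicharacter, and pullbacks
-/

set_option autoImplicit false

namespace Cfsg.Agent.Lib.Schur

open Cfsg
open scoped commutatorElement

universe u v w

noncomputable section

/-- The central extension of `G` by `T` with the cocycle `β`. -/
@[ext] structure Tw {G : Type u} {T : Type v} [Group G] [CommGroup T] (β : G →* (G →* T)) where
  g : G
  t : T

namespace Tw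

variable {G : Type u} {T : Type v} [Group G] [CommGroup T] {β : G →* (G →* T)}

instance : Mul (Tw β) := ⟨fun x y => ⟨x.g * y.g, x.t * y.t * β x.g y.g⟩⟩
instance : One (Tw β) := ⟨⟨1, 1⟩⟩
instance : Inv (Tw β) := ⟨fun x => ⟨x.g⁻¹, x.t⁻¹ * (β x.g⁻¹ x.g)⁻¹⟩⟩

@[simp] theorem mul_g (x y : Tw β) : (x * y).g = x.g * y.g := rfl
@[simp] theorem mul_t (x y : Tw β) : (x * y).t = x.t * y.t * β x.g y.g := rfl
@[simp] theorem one_g : (1 : Tw β).g = 1 := rfl
@[simp] theorem one_t : (1 : Tw β).t = 1 := rfl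

instance : Group (Tw β) :=
  Group.ofLeftAxioms
    (by
      intro x y z
      ext
      · simp [mul_assoc]
      · simp only [mul_t, mul_g, map_mul, MonoidHom.mul_apply, mul_comm, mul_left_comm, mul_assoc])
    (by
      intro x
      ext
      · simp
      · simp)
    (by
      intro x
      ext
      · show x.g⁻¹ * x.g = 1
        simp
      · show x.t⁻¹ * (β x.g⁻¹ x.g)⁻¹ * x.t * β x.g⁻¹ x.g = 1
        rw [mul_right_comm, mul_assoc x.t⁻¹, inv_mul_cancel, mul_one, inv_mul_cancel])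

/-- The projection to `G`. -/
def proj (β : G →* (G →* T)) : Tw β →* G where
  toFun := Tw.g
  map_one' := rfl
  map_mul' _ _ := rfl

@[simp] theorem proj_apply (x : Tw β) : proj β x = x.g := rfl

theorem proj_surjective : Function.Surjective (proj β) := fun x => ⟨⟨x, 1⟩, rfl⟩

/-- The inclusion of `T`. -/
def incl (β : G →* (G →* T)) : T →* Tw β where
  toFun t := ⟨1, t⟩
  map_one' := rfl
  map_mul' a b := by
    ext
    · simp
    · simp

@[simp] theorem incl_g (t : T) : (incl β t).g = 1 := rfl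
@[simp] theorem incl_t (t : T) : (incl β t).t = t := rfl

theorem incl_injective : Function.Injective (incl β) := fun a b h => congrArg Tw.t h

theorem mem_ker_proj {x : Tw β} : x ∈ (proj β).ker ↔ x.g = 1 := Iff.rfl

theorem eq_incl_of_mem_ker {x : Tw β} (h : x ∈ (proj β).ker) : x = incl β x.t := by
  ext
  · exact h
  · rfl

theorem incl_mem_center (t : T) : incl β t ∈ Subgroup.center (Tw β) := by
  rw [Subgroup.mem_center_iff]
  intro y
  ext
  · simp
  · simp [mul_comm]

theorem ker_proj_le_center : (proj β).ker ≤ Subgroup.center (Tw β) := by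
  intro x hx
  rw [eq_incl_of_mem_ker hx]
  exact incl_mem_center _

/-- The kernel of the projection is `T`. -/
def kerEquiv (β : G →* (G →* T)) : (proj β).ker ≃* T where
  toFun x := x.1.t
  invFun t := ⟨incl β t, rfl⟩
  left_inv x := Subtype.ext (eq_incl_of_mem_ker x.2).symm
  right_inv t := rfl
  map_mul' x y := by
    have h : (x : Tw β).g = 1 := x.2
    show (x : Tw β).t * (y : Tw β).t * β (x : Tw β).g (y : Tw β).g = (x : Tw β).t * (y : Tw β).t
    rw [h, map_one, MonoidHom.one_apply, mul_one]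

/-- Lift. -/
def lft (x : G) : Tw β := ⟨x, 1⟩

@[simp] theorem lft_g (x : G) : (lft x : Tw β).g = x := rfl
@[simp] theorem lft_t (x : G) : (lft x : Tw β).t = 1 := rfl

theorem comm_lft {x y : G} (h : x * y = y * x) :
    ⁅(lft x : Tw β), lft y⁆ = incl β (β x y * (β y x)⁻¹) := by
  have key : (lft x : Tw β) * lft y = incl β (β x y * (β y x)⁻¹) * (lft y * lft x) := by
    ext
    · show x * y = 1 * (y * x)
      rw [one_mul, h]
    · show (1 : T) * 1 * β x y = (β x y * (β y x)⁻¹) * (1 * 1 * β y x) * β 1 (y * x)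
      simp only [map_one, MonoidHom.one_apply, mul_one, one_mul, inv_mul_cancel_right]
  rw [commutatorElement_def, key]
  group

end Tw

/-! ### Pullbacks -/

section Pullback

variable {Γ : Type u} {Δ : Type v} {Q : Type w} [Group Γ] [Group Δ] [Group Q]

/-- The pullback. -/
def pb (σ : Γ →* Q) (τ : Δ →* Q) : Subgroup (Γ × Δ) :=
  (σ.comp (MonoidHom.fst Γ Δ)).eqLocus (τ.comp (MonoidHom.snd Γ Δ))

theorem mem_pb {σ : Γ →* Q} {τ : Δ →* Q} {p : Γ × Δ} : p ∈ pb σ τ ↔ σ p.1 = τ p.2 := Iff.rfl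

/-- First projection. -/
def pb1 (σ : Γ →* Q) (τ : Δ →* Q) : pb σ τ →* Γ := (MonoidHom.fst Γ Δ).comp (pb σ τ).subtype

/-- Second projection. -/
def pb2 (σ : Γ →* Q) (τ : Δ →* Q) : pb σ τ →* Δ := (MonoidHom.snd Γ Δ).comp (pb σ τ).subtype

theorem pb_comm (σ : Γ →* Q) (τ : Δ →* Q) (p : pb σ τ) : σ (pb1 σ τ p) = τ (pb2 σ τ p) := p.2

theorem pb1_surjective {σ : Γ →* Q} {τ : Δ →* Q} (hτ : Function.Surjective τ) :
    Function.Surjective (pb1 σ τ) := by
  intro g
  obtain ⟨d, hd⟩ := hτ (σ g)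
  exact ⟨⟨(g, d), hd.symm⟩, rfl⟩

theorem pb2_surjective {σ : Γ →* Q} {τ : Δ →* Q} (hσ : Function.Surjective σ) :
    Function.Surjective (pb2 σ τ) := by
  intro d
  obtain ⟨g, hg⟩ := hσ (τ d)
  exact ⟨⟨(g, d), hg⟩, rfl⟩

theorem ker_pb1_le_center {σ : Γ →* Q} {τ : Δ →* Q} (hτ : τ.ker ≤ Subgroup.center Δ) :
    (pb1 σ τ).ker ≤ Subgroup.center (pb σ τ) := by
  rintro ⟨⟨g, d⟩, hp⟩ hk
  have hg : g = 1 := hk
  subst hg
  have hd : d ∈ τ.ker := by
    have : σ 1 = τ d := hp
    rw [map_one] at this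
    exact this.symm
  rw [Subgroup.mem_center_iff]
  rintro ⟨⟨g', d'⟩, hp'⟩
  apply Subtype.ext
  show (g', d') * (1, d) = (1, d) * (g', d')
  rw [Prod.mk_mul_mk, Prod.mk_mul_mk, mul_one, one_mul, Subgroup.mem_center_iff.mp (hτ hd) d']

theorem ker_pb2_le_center {σ : Γ →* Q} {τ : Δ →* Q} (hσ : σ.ker ≤ Subgroup.center Γ) :
    (pb2 σ τ).ker ≤ Subgroup.center (pb σ τ) := by
  rintro ⟨⟨g, d⟩, hp⟩ hk
  have hd : d = 1 := hk
  subst hd
  have hg : g ∈ σ.ker := by
    have : σ g = τ 1 := hp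
    rw [map_one] at this
    exact this
  rw [Subgroup.mem_center_iff]
  rintro ⟨⟨g', d'⟩, hp'⟩
  apply Subtype.ext
  show (g', d') * (g, 1) = (g, 1) * (g', d')
  rw [Prod.mk_mul_mk, Prod.mk_mul_mk, mul_one, one_mul, Subgroup.mem_center_iff.mp (hσ hg) g']

theorem commutator_le_map_of_surjective {A B : Type*} [Group A] [Group B] (f : A →* B)
    (hf : Function.Surjective f) : commutator B ≤ (commutator A).map f := by
  rw [commutator_def, commutator_def, Subgroup.map_commutator, ← MonoidHom.range_eq_map,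
    (MonoidHom.range_eq_top).2 hf]

/-- If `P' ∩ (1 × ker τ) = 1`, then `ker τ` is a homomorphic image of `ker σ`. -/
theorem exists_surjective_of_pullback {σ : Γ →* Q} {τ : Δ →* Q} (hσ : IsStemExtension σ)
    (hτ : IsStemExtension τ)
    (h : ∀ p ∈ commutator (pb σ τ), pb1 σ τ p = 1 → p = 1) :
    ∃ π : σ.ker →* τ.ker, Function.Surjective π := by
  classical
  let L : Subgroup (pb σ τ) := commutator (pb σ τ) ⊓ (τ.comp (pb2 σ τ)).ker
  let a : L →* σ.ker := ((pb1 σ τ).comp L.subtype).codRestrict σ.ker (by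
    intro p
    have h1 : τ (pb2 σ τ p) = 1 := (Subgroup.mem_inf.mp p.2).2
    rw [MonoidHom.mem_ker, MonoidHom.comp_apply, Subgroup.subtype_apply, pb_comm]
    exact h1)
  let b : L →* τ.ker := ((pb2 σ τ).comp L.subtype).codRestrict τ.ker (by
    intro p
    exact (Subgroup.mem_inf.mp p.2).2)
  have ha : Function.Bijective a := by
    constructor
    · intro x y hxy
      have h1 : pb1 σ τ (x : pb σ τ) = pb1 σ τ (y : pb σ τ) := congrArg Subtype.val hxy
      have h2 : (x : pb σ τ) * (y : pb σ τ)⁻¹ = 1 := by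
        apply h
        · exact Subgroup.mul_mem _ (Subgroup.mem_inf.mp x.2).1 (Subgroup.inv_mem _ (Subgroup.mem_inf.mp y.2).1)
        · rw [map_mul, map_inv, h1]
          group
      exact Subtype.ext (mul_inv_eq_one.mp h2)
    · rintro ⟨z, hz⟩
      have h1 := commutator_le_map_of_surjective (pb1 σ τ) (pb1_surjective hτ.1) (hσ.2.2 hz)
      obtain ⟨p, hp, rfl⟩ := h1
      refine ⟨⟨p, Subgroup.mem_inf.mpr ⟨hp, ?_⟩⟩, rfl⟩
      rw [MonoidHom.mem_ker, MonoidHom.comp_apply, ← pb_comm]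
      exact hz
  have hb : Function.Surjective b := by
    rintro ⟨k, hk⟩
    have h1 := commutator_le_map_of_surjective (pb2 σ τ) (pb2_surjective hσ.1) (hτ.2.2 hk)
    obtain ⟨p, hp, rfl⟩ := h1
    exact ⟨⟨p, Subgroup.mem_inf.mpr ⟨hp, hk⟩⟩, rfl⟩
  let e := MulEquiv.ofBijective a ha
  exact ⟨b.comp e.symm.toMonoidHom, hb.comp e.symm.surjective⟩

end Pullback

end

end Cfsg.Agent.Lib.Schur
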