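import Mathlib
import Cfsg.Prelude.Def_KGroupFacts
import Cfsg.Agent.Lib.Schur.Twist

/-!
# Tools for Schur multipliers
-/

set_option autoImplicit false

namespace Cfsg.Agent.Lib.Schur

open Cfsg
open scoped commutatorElement

universe u v w

noncomputable section

/-- Enough roots of unity for the exponent of a finite commutative group. -/
theorem hasEnough (X : Type*) [CommGroup X] [Finite X] :
    HasEnoughRootsOfUnity ℂ (Monoid.exponent X) := by
  haveI : NeZero (Monoid.exponent X) := ⟨Monoid.exponent_ne_zero_of_finite⟩
  infer_instance

/-- A quotient of a finite abelian group embeds into it. -/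
theorem exists_injective_of_surjective {X Y : Type*} [CommGroup X] [CommGroup Y] [Finite X]
    (f : X →* Y) (hf : Function.Surjective f) : ∃ j : Y →* X, Function.Injective j := by
  haveI : Finite Y := Finite.of_surjective f hf
  haveI := hasEnough X
  haveI := hasEnough Y
  obtain ⟨eX⟩ := CommGroup.monoidHom_mulEquiv_of_hasEnoughRootsOfUnity X ℂ
  obtain ⟨eY⟩ := CommGroup.monoidHom_mulEquiv_of_hasEnoughRootsOfUnity Y ℂ
  let d : (Y →* ℂˣ) →* (X →* ℂˣ) := MonoidHom.mk' (fun χ => χ.comp f) (by
    intro a b
    ext x
    rfl)
  have hd : Function.Injective d := by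
    intro a b hab
    ext y
    obtain ⟨x, rfl⟩ := hf y
    have := DFunLike.congr_fun hab x
    exact congrArg _ this
  refine ⟨eX.toMonoidHom.comp (d.comp eY.symm.toMonoidHom), ?_⟩
  exact eX.injective.comp (hd.comp eY.symm.injective)

section Perfect

variable {G X Q : Type*} [Group G] [Group X] [Group Q]

/-- Two lifts of a homomorphism from a perfect group through a central extension coincide. -/
theorem eq_of_perfect [Group.IsPerfect G] (ξ : X →* Q) (hz : ξ.ker ≤ Subgroup.center X)
    (η η' : G →* X) (h : ξ.comp η = ξ.comp η') : η = η' := by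
  have hmem : ∀ g, (η' g)⁻¹ * η g ∈ Subgroup.center X := by
    intro g
    apply hz
    have := DFunLike.congr_fun h g
    simp only [MonoidHom.comp_apply] at this
    rw [MonoidHom.mem_ker, map_mul, map_inv, this]
    group
  have hle : commutator G ≤ η.eqLocus η' := by
    rw [commutator_def, Subgroup.commutator_le]
    intro a _ b _
    show η ⁅a, b⁆ = η' ⁅a, b⁆
    rw [map_commutatorElement, map_commutatorElement]
    have e1 : η a = η' a * ((η' a)⁻¹ * η a) := by group
    have e2 : η b = η' b * ((η' b)⁻¹ * η b) := by group
    rw [e1, e2]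
    have := comm_mul_central (a := η' a) (b := η' b) (hmem a) (hmem b)
    simpa using this
  ext g
  have : g ∈ commutator G := Group.IsPerfect.mem_commutator
  exact hle this

end Perfect

end

end Cfsg.Agent.Lib.Schur
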