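import Mathlib
import Cfsg.Prelude.Def_KGroupFacts
import Cfsg.Agent.Lib.Schur.Tools

/-!
# Central quotients and the norm map between multipliers
-/

set_option autoImplicit false

namespace Cfsg.Agent.Lib.Schur

open Cfsg
open scoped commutatorElement

universe u v w

noncomputable section

/-! ### Generic central quotients -/

section Generic

variable {X : Type*} {U : Type*} [Group X] [Group U] (κ : X →* U)

/-- `[ker κ, X]`. -/
def nG : Subgroup X := ⁅κ.ker, (⊤ : Subgroup X)⁆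

instance nG_normal : (nG κ).Normal := by
  unfold nG; infer_instance

theorem nG_le_ker : nG κ ≤ κ.ker := Subgroup.commutator_le_left _ _

/-- The central quotient. -/
abbrev EG : Type _ := X ⧸ nG κ

/-- The induced map. -/
def kG : EG κ →* U := QuotientGroup.lift (nG κ) κ (fun _ hx => nG_le_ker κ hx)

theorem kG_mk (x : X) : kG κ (x : EG κ) = κ x := rfl

theorem kG_surjective (h : Function.Surjective κ) : Function.Surjective (kG κ) := by
  intro u
  obtain ⟨x, hx⟩ := h u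
  exact ⟨(x : EG κ), hx⟩

theorem ker_kG_le_center : (kG κ).ker ≤ Subgroup.center (EG κ) := by
  intro x hx
  obtain ⟨f, rfl⟩ := QuotientGroup.mk_surjective x
  rw [Subgroup.mem_center_iff]
  intro y
  obtain ⟨g, rfl⟩ := QuotientGroup.mk_surjective y
  have hf : f ∈ κ.ker := hx
  have h1 : ⁅f, g⁆ ∈ nG κ := Subgroup.commutator_mem_commutator hf trivial
  have h2 : ((⁅f, g⁆ : X) : EG κ) = 1 := (QuotientGroup.eq_one_iff _).2 h1
  have h3 : (f : EG κ) * g * (f : EG κ)⁻¹ * (g : EG κ)⁻¹ = 1 := by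
    rw [commutatorElement_def] at h2
    exact h2
  have h4 : (f : EG κ) * g = g * f := by
    have := h3
    rw [mul_inv_eq_one, mul_inv_eq_iff_eq_mul] at this
    exact this
  exact h4.symm

instance commGroupKerKG : CommGroup (kG κ).ker :=
  { (inferInstance : Group (kG κ).ker) with
    mul_comm := fun a b => Subtype.ext (Subgroup.mem_center_iff.mp (ker_kG_le_center κ a.2) b).symm }

end Generic

/-! ### Images of `ker κ ⊓ X'` -/

section MapInf

variable {X : Type*} {E : Type*} {U : Type*} [Group X] [Group E] [Group U]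

theorem map_inf_commutator (κ : X →* U) (ξ : E →* U) (hκ : Function.Surjective κ)
    (hz : ξ.ker ≤ Subgroup.center E) (L : X →* E) (hL : ∀ x, ξ (L x) = κ x) :
    (κ.ker ⊓ commutator X).map L = ξ.ker ⊓ commutator E := by
  have hdec : ∀ a : E, ∃ x : X, ∃ z ∈ ξ.ker, a = L x * z := by
    intro a
    obtain ⟨x, hx⟩ := hκ (ξ a)
    refine ⟨x, (L x)⁻¹ * a, ?_, by group⟩
    rw [MonoidHom.mem_ker, map_mul, map_inv, hL, hx]
    group
  have hcomm : commutator E ≤ (commutator X).map L := by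
    rw [commutator_def, Subgroup.commutator_le]
    intro a _ b _
    obtain ⟨x, z, hz', rfl⟩ := hdec a
    obtain ⟨y, w, hw', rfl⟩ := hdec b
    rw [comm_mul_central (hz hz') (hz hw'), ← map_commutatorElement]
    exact Subgroup.mem_map_of_mem _ (Subgroup.commutator_mem_commutator trivial trivial)
  apply le_antisymm
  · rintro _ ⟨x, hx, rfl⟩
    refine Subgroup.mem_inf.mpr ⟨?_, ?_⟩
    · rw [MonoidHom.mem_ker, hL]
      exact hx.1
    · have h := Subgroup.mem_map_of_mem L hx.2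
      rw [commutator_def, Subgroup.map_commutator] at h
      exact Subgroup.commutator_mono le_top le_top h
  · rintro e ⟨he1, he2⟩
    obtain ⟨y, hy, rfl⟩ := hcomm he2
    refine ⟨y, Subgroup.mem_inf.mpr ⟨?_, hy⟩, rfl⟩
    have : ξ (L y) = 1 := he1
    rw [hL] at this
    exact this

/-- Lifting homomorphisms out of free groups. -/
theorem exists_lift_of_free {H : Type*} [Group H] [IsFreeGroup H] (κ : H →* U) (ξ : E →* U)
    (hξ : Function.Surjective ξ) : ∃ L : H →* E, ∀ x, ξ (L x) = κ x := by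
  refine ⟨IsFreeGroup.lift (fun g => Function.surjInv hξ (κ (IsFreeGroup.of g))), ?_⟩
  have h : ξ.comp (IsFreeGroup.lift (fun g => Function.surjInv hξ (κ (IsFreeGroup.of g)))) = κ := by
    apply IsFreeGroup.ext_hom
    intro g
    simp [Function.surjInv_eq hξ]
  exact fun x => DFunLike.congr_fun h x

/-- The lift to the central quotient. -/
theorem exists_lift_EG {H : Type*} [Group H] (κ : H →* U) (ξ : E →* U) (hz : ξ.ker ≤ Subgroup.center E)
    (L : H →* E) (hL : ∀ x, ξ (L x) = κ x) : ∃ L' : EG κ →* E, ∀ x, ξ (L' x) = kG κ x := by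
  have hk : nG κ ≤ L.ker := by
    unfold nG
    rw [Subgroup.commutator_le]
    intro r hr g _
    have h1 : L r ∈ ξ.ker := by
      rw [MonoidHom.mem_ker, hL]
      exact hr
    rw [MonoidHom.mem_ker, map_commutatorElement, commutatorElement_eq_one_iff_mul_comm]
    exact (Subgroup.mem_center_iff.mp (hz h1) _).symm
  refine ⟨QuotientGroup.lift (nG κ) L (fun _ hx => hk hx), ?_⟩
  intro x
  obtain ⟨f, rfl⟩ := QuotientGroup.mk_surjective x
  exact hL f

end MapInf

/-! ### The multiplier of a free quotient -/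

section FreeMult

variable {H : Type*} {U : Type*} [Group H] [IsFreeGroup H] [Group U] [Finite U]

/-- For a free presentation `H → U`, the subgroup `ker ⊓ commutator` of the central quotient is
isomorphic to the multiplier. -/
theorem mulEquiv_of_free {B : Type*} [CommGroup B] (hB : HasSchurMultiplier U B) (κ : H →* U)
    (hκ : Function.Surjective κ) :
    Nonempty (B ≃* ((kG κ).ker ⊓ commutator (EG κ) : Subgroup (EG κ))) := by
  classical
  obtain ⟨π, hπ⟩ := exists_range_eq hB (kG κ) (kG_surjective κ hκ) (ker_kG_le_center κ)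
  obtain ⟨⟨Γ, _, _, σ, hσ, ⟨e⟩⟩, -⟩ := hB
  obtain ⟨L, hL⟩ := exists_lift_of_free κ σ hσ.1
  obtain ⟨L', hL'⟩ := exists_lift_EG κ σ hσ.2.1 L hL
  have hmap := map_inf_commutator (kG κ) σ (kG_surjective κ hκ) hσ.2.1 L' hL'
  haveI hfB : Finite B := Finite.of_equiv _ e.toEquiv
  let f₁ : B →* ((kG κ).ker ⊓ commutator (EG κ) : Subgroup (EG κ)) :=
    π.codRestrict _ (fun b => by
      rw [← hπ]
      exact ⟨b, rfl⟩)
  have hf₁ : Function.Surjective f₁ := by
    rintro ⟨y, hy⟩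
    rw [← hπ] at hy
    obtain ⟨b, rfl⟩ := hy
    exact ⟨b, rfl⟩
  let f₂ : ((kG κ).ker ⊓ commutator (EG κ) : Subgroup (EG κ)) →* σ.ker :=
    (L'.comp (Subgroup.subtype _)).codRestrict σ.ker (fun y => by
      rw [MonoidHom.mem_ker, MonoidHom.comp_apply, hL']
      exact (Subgroup.mem_inf.mp y.2).1)
  have hf₂ : Function.Surjective f₂ := by
    rintro ⟨z, hz⟩
    have h1 : z ∈ σ.ker ⊓ commutator Γ := Subgroup.mem_inf.mpr ⟨hz, hσ.2.2 hz⟩
    rw [← hmap] at h1
    obtain ⟨y, hy, rfl⟩ := h1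
    exact ⟨⟨y, hy⟩, rfl⟩
  haveI : Finite ((kG κ).ker ⊓ commutator (EG κ) : Subgroup (EG κ)) := Finite.of_surjective f₁ hf₁
  have hc : Nat.card B ≤ Nat.card ((kG κ).ker ⊓ commutator (EG κ) : Subgroup (EG κ)) :=
    Nat.card_le_card_of_surjective _ (e.surjective.comp hf₂)
  exact ⟨MulEquiv.ofBijective f₁ (hf₁.bijective_of_nat_card_le hc)⟩

end FreeMult

/-! ### The norm -/

section Norm

variable {F U : Type*} [Group F] [Group U] (κ : F →* U) (P : Subgroup U)

/-- The subgroup of `F` over `P`. -/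
abbrev HH : Subgroup F := P.comap κ

/-- The restriction of `κ`. -/
def kH : HH κ P →* P := κ.subgroupComap P

theorem kH_val (h : HH κ P) : ((kH κ P h : P) : U) = κ h := rfl

theorem kH_surjective (hκ : Function.Surjective κ) : Function.Surjective (kH κ P) :=
  κ.subgroupComap_surjective_of_surjective P hκ

theorem conj_mem_ker (t : F) (x : κ.ker) : t⁻¹ * (x : F) * t ∈ κ.ker := by
  have h : κ (x : F) = 1 := x.2
  rw [MonoidHom.mem_ker, map_mul, map_mul, h, map_inv]
  group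

theorem ker_le_HH : κ.ker ≤ HH κ P := by
  intro x hx
  show κ x ∈ P
  rw [hx]
  exact Subgroup.one_mem _

/-- The element `t⁻¹ x t` of the central quotient of `HH`. -/
def uu (t : F) : κ.ker →* (kG (kH κ P)).ker :=
  MonoidHom.mk' (fun x => ⟨((⟨t⁻¹ * x * t, ker_le_HH κ P (conj_mem_ker κ t x)⟩ : HH κ P) : EG (kH κ P)), by
      rw [MonoidHom.mem_ker, kG_mk]
      apply Subtype.ext
      exact conj_mem_ker κ t x⟩) (by
    intro x y
    apply Subtype.ext
    show ((⟨t⁻¹ * ((x : F) * y) * t, _⟩ : HH κ P) : EG (kH κ P)) = ((⟨t⁻¹ * x * t, _⟩ : HH κ P) : EG (kH κ P)) * ((⟨t⁻¹ * y * t, _⟩ : HH κ P) : EG (kH κ P))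
    rw [← QuotientGroup.mk_mul]
    congr 1
    apply Subtype.ext
    show t⁻¹ * ((x : F) * y) * t = t⁻¹ * x * t * (t⁻¹ * y * t)
    group)

theorem uu_val (t : F) (x : κ.ker) : ((uu κ P t x : (kG (kH κ P)).ker) : EG (kH κ P)) =
    ((⟨t⁻¹ * x * t, ker_le_HH κ P (conj_mem_ker κ t x)⟩ : HH κ P) : EG (kH κ P)) := rfl

theorem uu_mul_right (t : F) (f : HH κ P) : uu κ P (t * f) = uu κ P t := by
  apply MonoidHom.ext
  intro x
  apply Subtype.ext
  rw [uu_val, uu_val]
  have h1 : (⟨(t * f)⁻¹ * x * (t * f), ker_le_HH κ P (conj_mem_ker κ _ x)⟩ : HH κ P) =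
      f⁻¹ * ⟨t⁻¹ * x * t, ker_le_HH κ P (conj_mem_ker κ t x)⟩ * f := by
    apply Subtype.ext
    show (t * f)⁻¹ * x * (t * f) = (f : F)⁻¹ * (t⁻¹ * x * t) * f
    group
  rw [h1, QuotientGroup.mk_mul, QuotientGroup.mk_mul, QuotientGroup.mk_inv]
  have h2 := (uu κ P t x).2
  have h3 : ((⟨t⁻¹ * x * t, ker_le_HH κ P (conj_mem_ker κ t x)⟩ : HH κ P) : EG (kH κ P)) ∈ (kG (kH κ P)).ker := h2
  have h4 := Subgroup.mem_center_iff.mp (ker_kG_le_center (kH κ P) h3) ((f : HH κ P) : EG (kH κ P))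
  rw [mul_assoc, ← h4]
  group

/-- `uu` on cosets. -/
def vv (q : F ⧸ HH κ P) : κ.ker →* (kG (kH κ P)).ker := uu κ P q.out

theorem vv_mk (t : F) : vv κ P (t : F ⧸ HH κ P) = uu κ P t := by
  unfold vv
  have h1 : ((t : F ⧸ HH κ P).out)⁻¹ * t ∈ HH κ P := by
    rw [← QuotientGroup.eq, QuotientGroup.out_eq']
  have h2 : t = (t : F ⧸ HH κ P).out * (⟨_, h1⟩ : HH κ P) := by
    show t = _ * (_⁻¹ * t)
    group
  conv_rhs => rw [h2]
  rw [uu_mul_right]

theorem uu_conj (t g : F) (x : κ.ker) (hx : g * x * g⁻¹ ∈ κ.ker) :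
    uu κ P t ⟨g * x * g⁻¹, hx⟩ = uu κ P (g⁻¹ * t) x := by
  apply Subtype.ext
  rw [uu_val, uu_val]
  congr 1
  apply Subtype.ext
  show t⁻¹ * (g * x * g⁻¹) * t = (g⁻¹ * t)⁻¹ * x * (g⁻¹ * t)
  group

variable [hfi : (HH κ P).FiniteIndex]

/-- The norm map. -/
def NN : κ.ker →* (kG (kH κ P)).ker :=
  letI := (HH κ P).fintypeQuotientOfFiniteIndex
  ∏ q : F ⧸ HH κ P, vv κ P q

theorem NN_apply (x : κ.ker) (inst : Fintype (F ⧸ HH κ P)) :
    NN κ P x = ∏ q : F ⧸ HH κ P, vv κ P q x := by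
  unfold NN
  have : (HH κ P).fintypeQuotientOfFiniteIndex = inst := Subsingleton.elim _ _
  rw [this]
  exact MonoidHom.finset_prod_apply _ _ _

theorem NN_conj (g : F) (x : κ.ker) (hx : g * x * g⁻¹ ∈ κ.ker) :
    NN κ P ⟨g * x * g⁻¹, hx⟩ = NN κ P x := by
  classical
  letI := (HH κ P).fintypeQuotientOfFiniteIndex
  rw [NN_apply κ P _ this, NN_apply κ P _ this]
  have h1 : ∀ q : F ⧸ HH κ P, vv κ P q ⟨g * x * g⁻¹, hx⟩ = vv κ P (g⁻¹ • q) x := by
    intro q
    conv_lhs => rw [← QuotientGroup.out_eq' q]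
    conv_rhs => rw [← QuotientGroup.out_eq' q]
    rw [vv_mk, uu_conj]
    have : g⁻¹ • ((q.out : F ⧸ HH κ P)) = ((g⁻¹ * q.out : F) : F ⧸ HH κ P) := rfl
    rw [this, vv_mk]
  simp only [h1]
  exact Equiv.prod_comp (MulAction.toPerm g⁻¹) (fun q => vv κ P q x)

theorem NN_commutator (r g : F) (hr : r ∈ κ.ker) (h : ⁅r, g⁆ ∈ κ.ker) :
    NN κ P ⟨⁅r, g⁆, h⟩ = 1 := by
  have hi : (r⁻¹ : F) ∈ κ.ker := Subgroup.inv_mem _ hr
  have hc : g * (r⁻¹ : F) * g⁻¹ ∈ κ.ker := by
    have := conj_mem_ker κ g⁻¹ ⟨r⁻¹, hi⟩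
    simpa using this
  have e : (⟨⁅r, g⁆, h⟩ : κ.ker) = ⟨r, hr⟩ * ⟨g * (r⁻¹ : F) * g⁻¹, hc⟩ := by
    apply Subtype.ext
    show ⁅r, g⁆ = r * (g * r⁻¹ * g⁻¹)
    rw [commutatorElement_def]
    group
  rw [e, map_mul, NN_conj κ P g ⟨r⁻¹, hi⟩ hc]
  rw [← map_mul]
  have : (⟨r, hr⟩ : κ.ker) * ⟨r⁻¹, hi⟩ = 1 := Subtype.ext (mul_inv_cancel r)
  rw [this, map_one]

theorem NN_of_mem_nG {z : F} (hz : z ∈ κ.ker) (hn : z ∈ nG κ) : NN κ P ⟨z, hz⟩ = 1 := by
  have hle : nG κ ≤ (NN κ P).ker.map κ.ker.subtype := by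
    unfold nG
    rw [Subgroup.commutator_le]
    intro r hr g _
    have h : ⁅r, g⁆ ∈ κ.ker := by
      rw [MonoidHom.mem_ker, map_commutatorElement, hr]
      simp
    exact ⟨⟨⁅r, g⁆, h⟩, NN_commutator κ P r g hr h, rfl⟩
  obtain ⟨z', hz', rfl⟩ := hle hn
  exact hz'

/-- The norm on the kernel of the central quotient. -/
def trK : (kG κ).ker →* (kG (kH κ P)).ker :=
  MonoidHom.mk' (fun y => NN κ P ⟨(y : EG κ).out, by
      have h1 : kG κ (y : EG κ) = 1 := y.2
      rw [← QuotientGroup.out_eq' (y : EG κ), kG_mk] at h1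
      exact h1⟩) (by
    intro y y'
    rw [← map_mul]
    have h0 : ∀ y : (kG κ).ker, (y : EG κ).out ∈ κ.ker := by
      intro y
      have h1 : kG κ (y : EG κ) = 1 := y.2
      rw [← QuotientGroup.out_eq' (y : EG κ), kG_mk] at h1
      exact h1
    have h2 : ((((y * y' : (kG κ).ker) : EG κ).out)⁻¹ * ((y : EG κ).out * (y' : EG κ).out)) ∈ nG κ := by
      rw [← QuotientGroup.eq, QuotientGroup.out_eq', QuotientGroup.mk_mul,
        QuotientGroup.out_eq', QuotientGroup.out_eq']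
      rfl
    have h3 := NN_of_mem_nG κ P (Subgroup.mul_mem _ (Subgroup.inv_mem _ (h0 (y * y')))
      (Subgroup.mul_mem _ (h0 y) (h0 y'))) h2
    have h4 : (⟨_, Subgroup.mul_mem _ (Subgroup.inv_mem _ (h0 (y * y')))
        (Subgroup.mul_mem _ (h0 y) (h0 y'))⟩ : κ.ker) =
        (⟨_, h0 (y * y')⟩ : κ.ker)⁻¹ * (⟨_, h0 y⟩ * ⟨_, h0 y'⟩) := rfl
    rw [h4, map_mul, map_inv] at h3
    have h5 := inv_mul_eq_one.mp h3
    exact h5)

theorem trK_mk (x : κ.ker) (hx : ((x : F) : EG κ) ∈ (kG κ).ker) :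
    trK κ P ⟨((x : F) : EG κ), hx⟩ = NN κ P x := by
  show NN κ P ⟨_, _⟩ = _
  have h0 : (((x : F) : EG κ)).out ∈ κ.ker := by
    have h1 : kG κ ((x : F) : EG κ) = 1 := hx
    rw [← QuotientGroup.out_eq' (((x : F) : EG κ)), kG_mk] at h1
    exact h1
  have h2 : (x : F)⁻¹ * (((x : F) : EG κ)).out ∈ nG κ := by
    rw [← QuotientGroup.eq, QuotientGroup.out_eq']
  have h3 := NN_of_mem_nG κ P (Subgroup.mul_mem _ (Subgroup.inv_mem _ x.2) h0) h2
  have h4 : (⟨_, Subgroup.mul_mem _ (Subgroup.inv_mem _ x.2) h0⟩ : κ.ker) = x⁻¹ * ⟨_, h0⟩ := rfl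
  rw [h4, map_mul, map_inv] at h3
  exact (inv_mul_eq_one.mp h3).symm

/-- The abelianized quotient map on `HH`. -/
def phiH : HH κ P →* Abelianization (EG (kH κ P)) :=
  Abelianization.of.comp (QuotientGroup.mk' (nG (kH κ P)))

/-- The norm computes the transfer. -/
theorem transfer_eq_of_NN (x : κ.ker) :
    MonoidHom.transfer (phiH κ P) (x : F) = Abelianization.of ((NN κ P x : (kG (kH κ P)).ker) : EG (kH κ P)) := by
  classical
  letI := (HH κ P).fintypeQuotientOfFiniteIndex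
  let T : (HH κ P).LeftTransversal := default
  rw [MonoidHom.transfer_def (phiH κ P) T (x : F)]
  rw [NN_apply κ P x this]
  have hψ : Abelianization.of ((∏ q : F ⧸ HH κ P, vv κ P q x : (kG (kH κ P)).ker) : EG (kH κ P)) =
      ∏ q : F ⧸ HH κ P, Abelianization.of ((vv κ P q x : (kG (kH κ P)).ker) : EG (kH κ P)) := by
    have := map_prod ((Abelianization.of : EG (kH κ P) →* _).comp (kG (kH κ P)).ker.subtype)
      (fun q : F ⧸ HH κ P => vv κ P q x) Finset.univ
    exact this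
  rw [hψ]
  unfold Subgroup.leftTransversals.diff
  simp only
  apply Finset.prod_congr rfl
  intro q _
  obtain ⟨t, ht⟩ : ∃ t : F, t = (T.2.leftQuotientEquiv q : F) := ⟨_, rfl⟩
  have hq : ((t : F) : F ⧸ HH κ P) = q := by
    rw [ht]
    exact Subgroup.IsComplement.quotientGroupMk_leftQuotientEquiv T.2 q
  have hinv : (x : F)⁻¹ • q = q := by
    rw [← hq]
    show (((x : F)⁻¹ * t : F) : F ⧸ HH κ P) = (t : F)
    rw [QuotientGroup.eq]
    have h1 := conj_mem_ker κ t x
    have h2 : ((x : F)⁻¹ * t)⁻¹ * t = t⁻¹ * x * t := by group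
    rw [h2]
    exact ker_le_HH κ P h1
  have hβ : ((((x : F) • T).2.leftQuotientEquiv q : _) : F) = x * t := by
    rw [Subgroup.smul_apply_eq_smul_apply_inv_smul, hinv, ← ht]
    rfl
  have hv : vv κ P q = uu κ P t := by rw [← vv_mk, hq]
  have e : (⟨(T.2.leftQuotientEquiv q : F)⁻¹ * ((((x : F) • T).2.leftQuotientEquiv q : _) : F),
      QuotientGroup.leftRel_apply.mp <| Quotient.exact'
        ((T.2.leftQuotientEquiv.symm_apply_apply q).trans
          (((x : F) • T).2.leftQuotientEquiv.symm_apply_apply q).symm)⟩ : HH κ P) =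
      ⟨t⁻¹ * x * t, ker_le_HH κ P (conj_mem_ker κ t x)⟩ := by
    apply Subtype.ext
    show (T.2.leftQuotientEquiv q : F)⁻¹ * ((((x : F) • T).2.leftQuotientEquiv q : _) : F) = t⁻¹ * x * t
    rw [hβ, ← ht]
    group
  rw [e, hv]
  rfl

/-- The corestriction. -/
def Cor : EG (kH κ P) →* EG κ :=
  QuotientGroup.lift (nG (kH κ P)) ((QuotientGroup.mk' (nG κ)).comp (HH κ P).subtype) (by
    have hle : nG (kH κ P) ≤ ((QuotientGroup.mk' (nG κ)).comp (HH κ P).subtype).ker := by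
      unfold nG
      rw [Subgroup.commutator_le]
      intro r hr g _
      have h1 : (r : F) ∈ κ.ker := by
        have h2 : kH κ P r = 1 := hr
        exact congrArg Subtype.val h2
      rw [MonoidHom.mem_ker]
      show (((⁅r, g⁆ : HH κ P) : F) : EG κ) = 1
      apply (QuotientGroup.eq_one_iff _).2
      exact Subgroup.commutator_mem_commutator h1 trivial
    exact fun _ hx => hle hx)

theorem Cor_mk (h : HH κ P) : Cor κ P (h : EG (kH κ P)) = ((h : F) : EG κ) := rfl

/-- The corestriction on the kernels. -/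
def corK : (kG (kH κ P)).ker →* (kG κ).ker :=
  ((Cor κ P).comp (kG (kH κ P)).ker.subtype).codRestrict (kG κ).ker (by
    rintro ⟨y, hy⟩
    obtain ⟨h, rfl⟩ := QuotientGroup.mk_surjective y
    have h1 : kH κ P h = 1 := hy
    exact congrArg Subtype.val h1)

theorem corK_val (y : (kG (kH κ P)).ker) :
    ((corK κ P y : (kG κ).ker) : EG κ) = Cor κ P y := rfl

theorem corK_NN (x : κ.ker) (hx : ((x : F) : EG κ) ∈ (kG κ).ker) :
    corK κ P (NN κ P x) = ⟨((x : F) : EG κ), hx⟩ ^ (HH κ P).index := by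
  classical
  letI := (HH κ P).fintypeQuotientOfFiniteIndex
  rw [NN_apply κ P x this, map_prod]
  have h1 : ∀ q : F ⧸ HH κ P, corK κ P (vv κ P q x) = ⟨((x : F) : EG κ), hx⟩ := by
    intro q
    apply Subtype.ext
    rw [corK_val]
    show Cor κ P ((⟨q.out⁻¹ * x * q.out, _⟩ : HH κ P) : EG (kH κ P)) = _
    rw [Cor_mk]
    show ((q.out⁻¹ * x * q.out : F) : EG κ) = _
    rw [QuotientGroup.mk_mul, QuotientGroup.mk_mul, QuotientGroup.mk_inv]
    have h2 := Subgroup.mem_center_iff.mp (ker_kG_le_center κ hx) ((q.out : F) : EG κ)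
    rw [mul_assoc, ← h2]
    group
  simp only [h1]
  rw [Finset.prod_const, Finset.card_univ, Subgroup.index_eq_card, Nat.card_eq_fintype_card]

/-- The composite `cor ∘ tr` is the power map. -/
theorem corK_trK (y : (kG κ).ker) : corK κ P (trK κ P y) = y ^ (HH κ P).index := by
  have h0 : (y : EG κ).out ∈ κ.ker := by
    have h1 : kG κ (y : EG κ) = 1 := y.2
    rw [← QuotientGroup.out_eq' (y : EG κ), kG_mk] at h1
    exact h1
  have h2 : (((⟨_, h0⟩ : κ.ker) : F) : EG κ) ∈ (kG κ).ker := by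
    show (((y : EG κ).out : F) : EG κ) ∈ (kG κ).ker
    rw [QuotientGroup.out_eq']
    exact y.2
  have h3 := corK_NN κ P ⟨_, h0⟩ h2
  have h4 : (⟨(((⟨_, h0⟩ : κ.ker) : F) : EG κ), h2⟩ : (kG κ).ker) = y := by
    apply Subtype.ext
    exact QuotientGroup.out_eq' (y : EG κ)
  rw [h4] at h3
  exact h3

theorem mem_commutator_of_mk {x : F} (h : (x : EG κ) ∈ commutator (EG κ)) : x ∈ commutator F := by
  have h1 : commutator (EG κ) = (commutator F).map (QuotientGroup.mk' (nG κ)) := by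
    rw [commutator_def, commutator_def, Subgroup.map_commutator, ← MonoidHom.range_eq_map,
      (MonoidHom.range_eq_top).2 (QuotientGroup.mk'_surjective (nG κ))]
  rw [h1] at h
  obtain ⟨g, hg, hgf⟩ := h
  have h2 : g⁻¹ * x ∈ nG κ := (QuotientGroup.eq).1 hgf
  have h3 : nG κ ≤ commutator F := Subgroup.commutator_mono le_top le_rfl
  have h4 := Subgroup.mul_mem _ hg (h3 h2)
  simpa using h4

theorem trK_mem_commutator (y : (kG κ).ker) (hy : (y : EG κ) ∈ commutator (EG κ)) :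
    ((trK κ P y : (kG (kH κ P)).ker) : EG (kH κ P)) ∈ commutator (EG (kH κ P)) := by
  have h0 : (y : EG κ).out ∈ κ.ker := by
    have h1 : kG κ (y : EG κ) = 1 := y.2
    rw [← QuotientGroup.out_eq' (y : EG κ), kG_mk] at h1
    exact h1
  have h1 : (y : EG κ).out ∈ commutator F := by
    apply mem_commutator_of_mk κ
    rw [QuotientGroup.out_eq']
    exact hy
  have h2 : MonoidHom.transfer (phiH κ P) (y : EG κ).out = 1 :=
    Abelianization.commutator_subset_ker (MonoidHom.transfer (phiH κ P)) h1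
  have h3 := transfer_eq_of_NN κ P ⟨_, h0⟩
  have h4 : Abelianization.of ((NN κ P ⟨_, h0⟩ : (kG (kH κ P)).ker) : EG (kH κ P)) = 1 := by
    rw [← h3]
    exact h2
  exact (QuotientGroup.eq_one_iff _).1 h4

theorem Cor_mem_commutator {y : EG (kH κ P)} (hy : y ∈ commutator (EG (kH κ P))) :
    Cor κ P y ∈ commutator (EG κ) := by
  have h := Subgroup.mem_map_of_mem (Cor κ P) hy
  rw [commutator_def, Subgroup.map_commutator] at h
  exact Subgroup.commutator_mono le_top le_top h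

/-- The multiplier subgroup. -/
abbrev MM {X U' : Type*} [Group X] [Group U'] (κ' : X →* U') : Subgroup (EG κ') :=
  (kG κ').ker ⊓ commutator (EG κ')

/-- The maps between the multipliers. -/
theorem exists_tr_cor : ∃ (t₀ : MM κ →* MM (kH κ P)) (c₀ : MM (kH κ P) →* MM κ),
    ∀ y, c₀ (t₀ y) = y ^ (HH κ P).index := by
  let t₀ : MM κ →* MM (kH κ P) :=
    (((kG (kH κ P)).ker.subtype.comp (trK κ P)).comp (Subgroup.inclusion inf_le_left)).codRestrict _ (by
      intro y
      refine Subgroup.mem_inf.mpr ⟨?_, ?_⟩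
      · exact (trK κ P (Subgroup.inclusion inf_le_left y)).2
      · exact trK_mem_commutator κ P _ (Subgroup.mem_inf.mp y.2).2)
  let c₀ : MM (kH κ P) →* MM κ :=
    (((kG κ).ker.subtype.comp (corK κ P)).comp (Subgroup.inclusion inf_le_left)).codRestrict _ (by
      intro y
      refine Subgroup.mem_inf.mpr ⟨?_, ?_⟩
      · exact (corK κ P (Subgroup.inclusion inf_le_left y)).2
      · exact Cor_mem_commutator κ P (Subgroup.mem_inf.mp y.2).2)
  refine ⟨t₀, c₀, ?_⟩
  intro y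
  apply Subtype.ext
  have h := corK_trK κ P (Subgroup.inclusion inf_le_left y)
  have h2 := congrArg (Subtype.val) h
  exact h2

end Norm

end

end Cfsg.Agent.Lib.Schur
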