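import Mathlib
import Cfsg.Prelude.Def_KGroupFacts
import Cfsg.Agent.Lib.Schur.Tools

/-!
# The cocycle `(a, b) ↦ λ(a) μ(b)`
-/

set_option autoImplicit false

namespace Cfsg.Agent.Lib.Schur

open Cfsg
open scoped commutatorElement

universe u v w

noncomputable section

/-- The bicharacter `λ(a) μ(b)`. -/
def bilOf {G : Type*} [Group G] {R : Type*} [CommRing R] (lam mu : G →* Multiplicative R) :
    G →* (G →* Multiplicative R) :=
  MonoidHom.mk' (fun a => MonoidHom.mk' (fun b =>
      Multiplicative.ofAdd (Multiplicative.toAdd (lam a) * Multiplicative.toAdd (mu b))) (by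
        intro b c
        have e : Multiplicative.toAdd (mu (b * c)) =
            Multiplicative.toAdd (mu b) + Multiplicative.toAdd (mu c) := by
          rw [mu.map_mul b c]; rfl
        rw [e, mul_add]
        rfl)) (by
      intro a b
      ext c
      show Multiplicative.ofAdd (Multiplicative.toAdd (lam (a * b)) * Multiplicative.toAdd (mu c)) = _ * _
      have e : Multiplicative.toAdd (lam (a * b)) =
          Multiplicative.toAdd (lam a) + Multiplicative.toAdd (lam b) := by
        rw [lam.map_mul a b]; rfl
      rw [e, add_mul]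
      rfl)

theorem bilOf_apply {G : Type*} [Group G] {R : Type*} [CommRing R] (lam mu : G →* Multiplicative R)
    (a b : G) : bilOf lam mu a b =
      Multiplicative.ofAdd (Multiplicative.toAdd (lam a) * Multiplicative.toAdd (mu b)) := rfl

instance tw_finite {G : Type*} {T : Type*} [Group G] [CommGroup T] [Finite G] [Finite T]
    (β : G →* (G →* T)) : Finite (Tw β) :=
  Finite.of_injective (fun x : Tw β => (x.g, x.t)) (by
    intro a b h
    ext
    · exact congrArg Prod.fst h
    · exact congrArg Prod.snd h)

theorem ofAdd_eq_pow {n : ℕ} [NeZero n] (a : ZMod n) :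
    Multiplicative.ofAdd a = (Multiplicative.ofAdd (1 : ZMod n)) ^ a.val := by
  rw [← ofAdd_nsmul, nsmul_one, ZMod.natCast_zmod_val]

/-- The extension is a stem extension. -/
theorem stem_bilOf {G : Type*} [Group G] {n : ℕ} [NeZero n] (lam mu : G →* Multiplicative (ZMod n))
    {x y : G} (hxy : x * y = y * x) (h1 : lam x = Multiplicative.ofAdd 1) (h2 : mu x = 1)
    (h3 : lam y = 1) (h4 : mu y = Multiplicative.ofAdd 1) :
    IsStemExtension (Tw.proj (bilOf lam mu)) := by
  refine ⟨Tw.proj_surjective, Tw.ker_proj_le_center, ?_⟩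
  have hcomm : Tw.incl (bilOf lam mu) (Multiplicative.ofAdd 1) ∈ commutator (Tw (bilOf lam mu)) := by
    have e := Tw.comm_lft (β := bilOf lam mu) hxy
    have e1 : bilOf lam mu x y * (bilOf lam mu y x)⁻¹ = Multiplicative.ofAdd 1 := by
      rw [bilOf_apply, bilOf_apply, h1, h2, h3, h4]
      simp
    rw [e1] at e
    rw [← e]
    exact Subgroup.commutator_mem_commutator trivial trivial
  intro p hp
  rw [Tw.eq_incl_of_mem_ker hp]
  have e2 : p.t = (Multiplicative.ofAdd (1 : ZMod n)) ^ (Multiplicative.toAdd p.t).val :=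
    ofAdd_eq_pow (Multiplicative.toAdd p.t)
  rw [e2, map_pow]
  exact Subgroup.pow_mem _ hcomm _

end

end Cfsg.Agent.Lib.Schur
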