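import Mathlib
import Cfsg.Prelude.Def_KGroupFacts
import Cfsg.Agent.Lib.Schur.Tools

/-!
# Characters with values in a divisible group, the center of `GL`
-/

set_option autoImplicit false

namespace Cfsg.Agent.Lib.Schur

open Cfsg
open scoped commutatorElement

universe u v w

noncomputable section

/-- Extension of a character from a subgroup meeting the commutator subgroup trivially. -/
theorem extend_char {G Z : Type*} [Group G] [CommGroup Z]
    (hdiv : ∀ (k : ℤ), k ≠ 0 → ∀ z : Z, ∃ w : Z, w ^ k = z)
    (C : Subgroup G) (hC : C ⊓ commutator G = ⊥) (g : C →* Z) :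
    ∃ f : G →* Z, ∀ c : C, f c = g c := by
  classical
  let j : C →* Abelianization G := (Abelianization.of).comp C.subtype
  have hj : Function.Injective j := by
    intro a b hab
    have h1 : ((a : G)⁻¹ * b) ∈ C ⊓ commutator G := by
      refine Subgroup.mem_inf.mpr ⟨Subgroup.mul_mem _ (Subgroup.inv_mem _ a.2) b.2, ?_⟩
      have h2 : (Abelianization.of (a : G)) = Abelianization.of (b : G) := hab
      exact (QuotientGroup.eq).1 h2
    rw [hC, Subgroup.mem_bot] at h1
    exact Subtype.ext (inv_mul_eq_one.mp h1)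
  let e : C ≃* j.range := MonoidHom.ofInjective hj
  let g' : j.range →* Z := g.comp e.symm.toMonoidHom
  letI : DivisibleBy (Additive Z) ℤ := divisibleByOfSMulRightSurj (Additive Z) ℤ (by
    intro k hk z
    obtain ⟨w, hw⟩ := hdiv k hk (Additive.toMul z)
    exact ⟨Additive.ofMul w, congrArg Additive.ofMul hw⟩)
  have hB : Module.Baer ℤ (Additive Z) := Module.Baer.of_divisible (Additive Z)
  let incl : Additive j.range →+ Additive (Abelianization G) := MonoidHom.toAdditive j.range.subtype
  have hincl : Function.Injective incl := j.range.subtype_injective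
  obtain ⟨h, hh⟩ := hB.extension_property_addMonoidHom incl hincl (MonoidHom.toAdditive g')
  refine ⟨(MonoidHom.toAdditive.symm h).comp Abelianization.of, ?_⟩
  intro c
  have h1 := DFunLike.congr_fun hh (Additive.ofMul (e c))
  have h2 : (g' (e c)) = g c := by
    show g (e.symm (e c)) = g c
    rw [e.symm_apply_apply]
  rw [← h2]
  exact h1

/-- The center of `GL n ℂ` is divisible. -/
theorem center_GL_divisible (n : Type*) [Fintype n] [DecidableEq n] (k : ℤ) (hk : k ≠ 0)
    (z : Subgroup.center (GL n ℂ)) : ∃ w : Subgroup.center (GL n ℂ), w ^ k = z := by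
  obtain ⟨z, hz⟩ := z
  have hz' := hz
  rw [Matrix.GeneralLinearGroup.center_eq_range_scalar] at hz'
  obtain ⟨u, rfl⟩ := hz'
  -- roots in `ℂˣ`
  have hroot : ∃ v : ℂˣ, v ^ k = u := by
    have hna : k.natAbs ≠ 0 := by omega
    obtain ⟨c, hc⟩ := IsAlgClosed.exists_pow_nat_eq (u : ℂ) (Nat.pos_of_ne_zero hna)
    have hc0 : c ≠ 0 := by
      rintro rfl
      rw [zero_pow hna] at hc
      exact u.ne_zero hc.symm
    rcases Int.natAbs_eq k with h | h
    · refine ⟨Units.mk0 c hc0, ?_⟩
      rw [h, zpow_natCast]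
      apply Units.ext
      simpa using hc
    · refine ⟨(Units.mk0 c hc0)⁻¹, ?_⟩
      rw [h, zpow_neg, zpow_natCast, inv_pow, inv_inv]
      apply Units.ext
      simpa using hc
  obtain ⟨v, rfl⟩ := hroot
  have hmem : Matrix.GeneralLinearGroup.scalar n v ∈ Subgroup.center (GL n ℂ) := by
    rw [Matrix.GeneralLinearGroup.center_eq_range_scalar]
    exact ⟨v, rfl⟩
  refine ⟨⟨_, hmem⟩, ?_⟩
  apply Subtype.ext
  exact (map_zpow (Matrix.GeneralLinearGroup.scalar n) v k).symm

end

end Cfsg.Agent.Lib.Schur
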