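import Mathlib
import Cfsg.Prelude.Def_KGroupFacts
import Cfsg.Agent.Lib.Schur.Tools

/-!
# The tensor product of abelianizations and commutator pairings
-/

set_option autoImplicit false

namespace Cfsg.Agent.Lib.Schur

open Cfsg
open scoped commutatorElement TensorProduct

universe u v w

noncomputable section

section Tensor

variable (Q₁ : Type u) (Q₂ : Type v) [Group Q₁] [Group Q₂]

/-- The tensor product of the abelianizations. -/
abbrev TT : Type (max u v) :=
  TensorProduct ℤ (Additive (Abelianization Q₁)) (Additive (Abelianization Q₂))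

variable {Q₁ Q₂}

/-- A pure tensor. -/
def pureT (q₁ : Q₁) (q₂ : Q₂) : TT Q₁ Q₂ :=
  Additive.ofMul (Abelianization.of q₁) ⊗ₜ[ℤ] Additive.ofMul (Abelianization.of q₂)

theorem pureT_mul_left (a b : Q₁) (q₂ : Q₂) : pureT (a * b) q₂ = pureT a q₂ + pureT b q₂ := by
  unfold pureT
  rw [map_mul, ofMul_mul, TensorProduct.add_tmul]

theorem pureT_mul_right (q₁ : Q₁) (a b : Q₂) : pureT q₁ (a * b) = pureT q₁ a + pureT q₁ b := by
  unfold pureT
  rw [map_mul, ofMul_mul, TensorProduct.tmul_add]

theorem pureT_one_left (q₂ : Q₂) : pureT (1 : Q₁) q₂ = 0 := by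
  unfold pureT
  rw [map_one, ofMul_one, TensorProduct.zero_tmul]

theorem pureT_one_right (q₁ : Q₁) : pureT q₁ (1 : Q₂) = 0 := by
  unfold pureT
  rw [map_one, ofMul_one, TensorProduct.tmul_zero]

/-- Induction on tensors: a predicate closed under addition that holds on pure tensors holds. -/
theorem TT_induction {P : TT Q₁ Q₂ → Prop} (h0 : P 0) (hp : ∀ a b, P (pureT a b))
    (hadd : ∀ x y, P x → P y → P (x + y)) (t : TT Q₁ Q₂) : P t := by
  induction t using TensorProduct.induction_on with
  | zero => exact h0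
  | tmul x y =>
    obtain ⟨x', rfl⟩ := QuotientGroup.mk'_surjective _ (Additive.toMul x)
    obtain ⟨y', rfl⟩ := QuotientGroup.mk'_surjective _ (Additive.toMul y)
    exact hp x' y'
  | add x y hx hy => exact hadd x y hx hy

instance finite_TT [Finite Q₁] [Finite Q₂] : Finite (TT Q₁ Q₂) := by
  classical
  haveI : Finite (Abelianization Q₁) := inferInstance
  have hN : ∀ t : TT Q₁ Q₂, (Nat.card (Abelianization Q₁)) • t = 0 := by
    apply TT_induction
    · simp
    · intro a b
      unfold pureT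
      rw [TensorProduct.smul_tmul']
      have h1 : (Abelianization.of a) ^ Nat.card (Abelianization Q₁) = 1 := pow_card_eq_one'
      have h2 : Nat.card (Abelianization Q₁) • Additive.ofMul (Abelianization.of a) = 0 := by
        rw [← ofMul_pow, h1]
        rfl
      rw [h2, TensorProduct.zero_tmul]
    · intro x y hx hy
      rw [smul_add, hx, hy, add_zero]
  have htors : IsAddTorsion (TT Q₁ Q₂) := fun t =>
    isOfFinAddOrder_iff_nsmul_eq_zero.2 ⟨_, Nat.card_pos, hN t⟩
  have hS : (Set.range (fun p : Q₁ × Q₂ => pureT p.1 p.2)).Finite := Set.finite_range _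
  have hcl : AddSubgroup.closure (Set.range (fun p : Q₁ × Q₂ => pureT p.1 p.2)) = ⊤ := by
    rw [eq_top_iff]
    have key : ∀ t : TT Q₁ Q₂, t ∈ AddSubgroup.closure (Set.range (fun p : Q₁ × Q₂ => pureT p.1 p.2)) := by
      apply TT_induction
      · exact AddSubgroup.zero_mem _
      · intro a b
        exact AddSubgroup.subset_closure ⟨(a, b), rfl⟩
      · intro x y hx hy
        exact AddSubgroup.add_mem _ hx hy
    intro t _
    exact key t
  haveI : AddGroup.FG (TT Q₁ Q₂) := ⟨⟨hS.toFinset, by rw [Set.Finite.coe_toFinset]; exact hcl⟩⟩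
  exact AddCommGroup.finite_of_fg_isAddTorsion (TT Q₁ Q₂) htors

section Pairing

variable {Δ : Type w} [Group Δ]

theorem comm_mul_left_of_central {a b c : Δ} (h : ⁅b, c⁆ ∈ Subgroup.center Δ) :
    ⁅a * b, c⁆ = ⁅a, c⁆ * ⁅b, c⁆ := by
  have e : ⁅a * b, c⁆ = a * ⁅b, c⁆ * a⁻¹ * ⁅a, c⁆ := by
    simp only [commutatorElement_def]
    group
  rw [e, Subgroup.mem_center_iff.mp h a]
  have h2 := Subgroup.mem_center_iff.mp h ⁅a, c⁆
  rw [mul_inv_cancel_right, h2]

theorem comm_mul_right_of_central {a b c : Δ} (h : ⁅a, c⁆ ∈ Subgroup.center Δ) :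
    ⁅a, b * c⁆ = ⁅a, b⁆ * ⁅a, c⁆ := by
  have e : ⁅a, b * c⁆ = ⁅a, b⁆ * (b * ⁅a, c⁆ * b⁻¹) := by
    simp only [commutatorElement_def]
    group
  rw [e, Subgroup.mem_center_iff.mp h b, mul_inv_cancel_right]

/-- A commutator pairing into a central subgroup factors through the tensor product. -/
theorem exists_pairing (K : Subgroup Δ) (hK : K ≤ Subgroup.center Δ) (s₁ : Q₁ → Δ) (s₂ : Q₂ → Δ)
    (h₁ : ∀ a b, (s₁ a * s₁ b)⁻¹ * s₁ (a * b) ∈ K) (h₂ : ∀ a b, (s₂ a * s₂ b)⁻¹ * s₂ (a * b) ∈ K)
    (h₃ : ∀ a b, ⁅s₁ a, s₂ b⁆ ∈ K) :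
    ∃ Λ : Multiplicative (TT Q₁ Q₂) →* K, ∀ a b,
      ((Λ (Multiplicative.ofAdd (pureT a b)) : K) : Δ) = ⁅s₁ a, s₂ b⁆ := by
  classical
  letI : CommGroup K :=
    { (inferInstance : Group K) with
      mul_comm := fun a b => Subtype.ext (Subgroup.mem_center_iff.mp (hK a.2) b).symm }
  let P : Q₁ → Q₂ → K := fun a b => ⟨⁅s₁ a, s₂ b⁆, h₃ a b⟩
  have hPl : ∀ a a' b, P (a * a') b = P a b * P a' b := by
    intro a a' b
    apply Subtype.ext
    show ⁅s₁ (a * a'), s₂ b⁆ = ⁅s₁ a, s₂ b⁆ * ⁅s₁ a', s₂ b⁆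
    have e : s₁ (a * a') = s₁ a * s₁ a' * ((s₁ a * s₁ a')⁻¹ * s₁ (a * a')) := by group
    rw [e]
    have h := comm_mul_central (a := s₁ a * s₁ a') (b := s₂ b) (hK (h₁ a a')) (Subgroup.one_mem _)
    rw [mul_one] at h
    rw [h, comm_mul_left_of_central (hK (h₃ a' b))]
  have hPr : ∀ a b b', P a (b * b') = P a b * P a b' := by
    intro a b b'
    apply Subtype.ext
    show ⁅s₁ a, s₂ (b * b')⁆ = ⁅s₁ a, s₂ b⁆ * ⁅s₁ a, s₂ b'⁆
    have e : s₂ (b * b') = s₂ b * s₂ b' * ((s₂ b * s₂ b')⁻¹ * s₂ (b * b')) := by group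
    rw [e]
    have h := comm_mul_central (a := s₁ a) (b := s₂ b * s₂ b') (Subgroup.one_mem _) (hK (h₂ b b'))
    rw [mul_one] at h
    rw [h, comm_mul_right_of_central (hK (h₃ a b'))]
  let f : Q₁ → (Q₂ →* K) := fun a => MonoidHom.mk' (P a) (hPr a)
  let F₂ : Q₁ →* (Abelianization Q₂ →* K) := MonoidHom.mk' (fun a => Abelianization.lift (f a)) (by
    intro a a'
    apply Abelianization.hom_ext
    apply MonoidHom.ext
    intro b
    have h : Abelianization.lift (f (a * a')) (Abelianization.of b) =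
        Abelianization.lift (f a) (Abelianization.of b) * Abelianization.lift (f a') (Abelianization.of b) := by
      rw [Abelianization.lift_apply_of, Abelianization.lift_apply_of, Abelianization.lift_apply_of]
      exact hPl a a' b
    exact h)
  let F₁ : Abelianization Q₁ →* (Abelianization Q₂ →* K) := Abelianization.lift F₂
  have hF : ∀ a b, F₁ (Abelianization.of a) (Abelianization.of b) = P a b := by
    intro a b
    show Abelianization.lift F₂ (Abelianization.of a) (Abelianization.of b) = P a b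
    rw [Abelianization.lift_apply_of]
    show Abelianization.lift (f a) (Abelianization.of b) = P a b
    rw [Abelianization.lift_apply_of]
    rfl
  let B : Additive (Abelianization Q₁) →+ (Additive (Abelianization Q₂) →+ Additive K) :=
    AddMonoidHom.mk' (fun x => AddMonoidHom.mk'
      (fun y => Additive.ofMul (F₁ (Additive.toMul x) (Additive.toMul y))) (by
        intro y y'
        show Additive.ofMul (F₁ (Additive.toMul x) (Additive.toMul y * Additive.toMul y')) = _
        rw [map_mul]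
        rfl)) (by
      intro x x'
      apply AddMonoidHom.ext
      intro y
      show Additive.ofMul (F₁ (Additive.toMul x * Additive.toMul x') (Additive.toMul y)) = _
      rw [map_mul]
      rfl)
  have hB : ∀ (r : ℤ) (m : Additive (Abelianization Q₁)) (n : Additive (Abelianization Q₂)),
      B (r • m) n = B m (r • n) := by
    intro r m n
    rw [map_zsmul, map_zsmul, AddMonoidHom.zsmul_apply]
  let L : TT Q₁ Q₂ →+ Additive K := TensorProduct.liftAddHom B hB
  refine ⟨MonoidHom.mk' (fun t => Additive.toMul (L (Multiplicative.toAdd t))) (by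
    intro t t'
    show Additive.toMul (L (Multiplicative.toAdd t + Multiplicative.toAdd t')) = _
    rw [map_add]
    rfl), ?_⟩
  intro a b
  show ((Additive.toMul (L (pureT a b)) : K) : Δ) = _
  have h1 : L (pureT a b) = Additive.ofMul (P a b) := by
    show TensorProduct.liftAddHom B hB (_ ⊗ₜ[ℤ] _) = _
    rw [TensorProduct.liftAddHom_tmul]
    show Additive.ofMul (F₁ (Abelianization.of a) (Abelianization.of b)) = _
    rw [hF]
  rw [h1]
  rfl

end Pairing

end Tensor

end

end Cfsg.Agent.Lib.Schur
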